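import Mathlib

set_option autoImplicit false

/-! The real twisted group algebra of an elementary abelian 2-group, as matrices. -/

namespace H56.X84

open Matrix

/-- The sign of an element of the field with two elements. -/
noncomputable def sgn (a : ZMod 2) : ℝ := if a = 0 then 1 else -1

theorem z2 (a : ZMod 2) : a = 0 ∨ a = 1 := by revert a; decide

@[simp] theorem sgn_zero : sgn 0 = 1 := by simp [sgn]

@[simp] theorem sgn_one : sgn 1 = -1 := by simp [sgn]

theorem sgn_add (a b : ZMod 2) : sgn (a + b) = sgn a * sgn b := by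
  rcases z2 a with rfl | rfl <;> rcases z2 b with rfl | rfl <;> simp
  rw [show (1 : ZMod 2) + 1 = 0 from rfl, sgn_zero]

theorem sgn_mul_self (a : ZMod 2) : sgn a * sgn a = 1 := by
  rcases z2 a with rfl | rfl <;> simp

theorem sgn_ne (a : ZMod 2) : sgn a ≠ 0 := by
  rcases z2 a with rfl | rfl <;> simp

theorem sgn_inj {a b : ZMod 2} (h : sgn a = sgn b) : a = b := by
  rcases z2 a with rfl | rfl <;> rcases z2 b with rfl | rfl <;> simp at h ⊢ <;> norm_num at h

theorem sgn_of_mul_self {c : ℝ} (h : c * c = 1) : ∃ s, c = sgn s := by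
  rcases mul_self_eq_one_iff.1 h with h | h
  · exact ⟨0, by rw [h, sgn_zero]⟩
  · exact ⟨1, by rw [h, sgn_one]⟩

theorem z2_add_self (a : ZMod 2) : a + a = 0 := by revert a; decide

section
variable {U : Type*} [AddCommGroup U] [Module (ZMod 2) U]

theorem add_self (u : U) : u + u = 0 := by
  have h : ((1 : ZMod 2) + 1) • u = 0 := by rw [show (1 : ZMod 2) + 1 = 0 from rfl, zero_smul]
  rwa [add_smul, one_smul] at h

theorem add_add_self (u v : U) : u + (u + v) = v := by rw [← add_assoc, add_self, zero_add]

theorem eq_add_iff (x u y : U) : x = u + y ↔ y = u + x := by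
  constructor
  · rintro rfl; rw [add_add_self]
  · rintro rfl; rw [add_add_self]

variable [Fintype U] [DecidableEq U] (β : LinearMap.BilinForm (ZMod 2) U)

/-- Left multiplication by a basis element. -/
noncomputable def E (u : U) : Matrix U U ℝ := Matrix.of fun x y => if x = u + y then sgn (β u y) else 0

/-- Right multiplication by a basis element. -/
noncomputable def F (u : U) : Matrix U U ℝ := Matrix.of fun x y => if x = u + y then sgn (β y u) else 0

theorem E_apply (u x y : U) : E β u x y = if x = u + y then sgn (β u y) else 0 := rfl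

theorem F_apply (u x y : U) : F β u x y = if x = u + y then sgn (β y u) else 0 := rfl

theorem E_mul (M : Matrix U U ℝ) (u x y : U) : (E β u * M) x y = sgn (β u (u + x)) * M (u + x) y := by
  rw [Matrix.mul_apply, Finset.sum_eq_single (u + x)]
  · rw [E_apply, if_pos (by rw [add_add_self])]
  · intro z _ hz
    rw [E_apply, if_neg (fun h => hz ((eq_add_iff x u z).1 h)), zero_mul]
  · intro h; exact absurd (Finset.mem_univ _) h

theorem mul_E (M : Matrix U U ℝ) (u x y : U) : (M * E β u) x y = M x (u + y) * sgn (β u y) := by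
  rw [Matrix.mul_apply, Finset.sum_eq_single (u + y)]
  · rw [E_apply, if_pos rfl]
  · intro z _ hz
    rw [E_apply, if_neg hz, mul_zero]
  · intro h; exact absurd (Finset.mem_univ _) h

theorem F_mul (M : Matrix U U ℝ) (u x y : U) : (F β u * M) x y = sgn (β (u + x) u) * M (u + x) y := by
  rw [Matrix.mul_apply, Finset.sum_eq_single (u + x)]
  · rw [F_apply, if_pos (by rw [add_add_self])]
  · intro z _ hz
    rw [F_apply, if_neg (fun h => hz ((eq_add_iff x u z).1 h)), zero_mul]
  · intro h; exact absurd (Finset.mem_univ _) h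

theorem mul_F (M : Matrix U U ℝ) (u x y : U) : (M * F β u) x y = M x (u + y) * sgn (β y u) := by
  rw [Matrix.mul_apply, Finset.sum_eq_single (u + y)]
  · rw [F_apply, if_pos rfl]
  · intro z _ hz
    rw [F_apply, if_neg hz, mul_zero]
  · intro h; exact absurd (Finset.mem_univ _) h

theorem E_mul_E (u v : U) : E β u * E β v = sgn (β u v) • E β (u + v) := by
  ext x y
  rw [mul_E, Matrix.smul_apply, E_apply, E_apply, smul_eq_mul]
  by_cases h : x = u + (v + y)
  · rw [if_pos h, if_pos (by rw [add_assoc]; exact h), ← sgn_add, ← sgn_add]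
    congr 1
    simp only [map_add, LinearMap.add_apply]
    ring
  · rw [if_neg h, if_neg (by rw [add_assoc]; exact h)]
    simp

theorem E_mul_F (u v : U) : E β u * F β v = F β v * E β u := by
  ext x y
  rw [mul_F, mul_E, E_apply, F_apply]
  by_cases h : x = u + (v + y)
  · rw [if_pos h, if_pos (by rw [h]; abel), ← sgn_add, ← sgn_add]
    congr 1
    simp only [map_add, LinearMap.add_apply]
    ring
  · rw [if_neg h, if_neg (fun h' => h (by rw [h']; abel))]
    simp

theorem E_transpose (u : U) : (E β u)ᵀ = sgn (β u u) • E β u := by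
  ext x y
  rw [Matrix.transpose_apply, Matrix.smul_apply, smul_eq_mul, E_apply, E_apply]
  by_cases h : x = u + y
  · rw [if_pos h, if_pos ((eq_add_iff x u y).1 h), ← sgn_add, h]
    congr 1
    simp only [map_add]
  · rw [if_neg h, if_neg (fun h' => h ((eq_add_iff y u x).1 h'))]
    simp

theorem F_transpose (u : U) : (F β u)ᵀ = sgn (β u u) • F β u := by
  ext x y
  rw [Matrix.transpose_apply, Matrix.smul_apply, smul_eq_mul, F_apply, F_apply]
  by_cases h : x = u + y
  · rw [if_pos h, if_pos ((eq_add_iff x u y).1 h), ← sgn_add, h]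
    congr 1
    simp only [map_add, LinearMap.add_apply]
  · rw [if_neg h, if_neg (fun h' => h ((eq_add_iff y u x).1 h'))]
    simp

theorem E_zero : E β 0 = 1 := by
  ext x y
  rw [E_apply, Matrix.one_apply, zero_add]
  simp

/-- The algebra. -/
def InA (M : Matrix U U ℝ) : Prop := ∀ u, M * F β u = F β u * M

variable {β}

theorem InA.one : InA β (1 : Matrix U U ℝ) := fun u => by rw [one_mul, mul_one]

theorem InA.mul {M N : Matrix U U ℝ} (hM : InA β M) (hN : InA β N) : InA β (M * N) := fun u => by
  rw [mul_assoc, hN u, ← mul_assoc, hM u, mul_assoc]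

theorem InA.smul {M : Matrix U U ℝ} (c : ℝ) (hM : InA β M) : InA β (c • M) := fun u => by
  rw [Matrix.smul_mul, Matrix.mul_smul, hM u]

theorem InA.sum {ι : Type*} (s : Finset ι) {M : ι → Matrix U U ℝ} (hM : ∀ i ∈ s, InA β (M i)) : InA β (∑ i ∈ s, M i) := by
  intro u
  rw [Finset.sum_mul, Finset.mul_sum]
  exact Finset.sum_congr rfl fun i hi => hM i hi u

theorem InA.bas (u : U) : InA β (E β u) := fun v => E_mul_F β u v

theorem InA.transpose {M : Matrix U U ℝ} (hM : InA β M) : InA β Mᵀ := by
  intro u
  have h := congrArg Matrix.transpose (hM u)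
  rw [Matrix.transpose_mul, Matrix.transpose_mul, F_transpose, Matrix.smul_mul, Matrix.mul_smul] at h
  have h2 := congrArg (fun X => sgn (β u u) • X) h
  simp only [smul_smul, sgn_mul_self, one_smul] at h2
  exact h2.symm

theorem InA.apply {M : Matrix U U ℝ} (hM : InA β M) (x y : U) : M x y = sgn (β (y + x) y) * M (y + x) 0 := by
  have h := congrFun (congrFun (hM y) x) 0
  rw [mul_F, F_mul, add_zero] at h
  simpa using h

theorem InA.ext {M N : Matrix U U ℝ} (hM : InA β M) (hN : InA β N) (h : ∀ x, M x 0 = N x 0) : M = N := by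
  ext x y
  rw [hM.apply, hN.apply, h]

theorem InA.eq_smul_E {M : Matrix U U ℝ} (hM : InA β M) (hM0 : M ≠ 0)
    (hnd : ∀ x, (∀ u, β x u + β u x = 0) → x = 0)
    (h : ∀ u, ∃ s, M * E β u = sgn s • (E β u * M)) : ∃ w, M = M w 0 • E β w ∧ M w 0 ≠ 0 := by
  obtain ⟨w, hw⟩ : ∃ w, M w 0 ≠ 0 := by
    by_contra hcon
    push Not at hcon
    apply hM0
    apply hM.ext (N := 0)
    · intro u; simp
    · intro x; rw [hcon x]; rfl
  have key : ∀ x, M x 0 ≠ 0 → ∀ u s, M * E β u = sgn s • (E β u * M) → β x u + β u x = s := by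
    intro x hx u s hs
    have h1 := congrFun (congrFun hs (u + x)) 0
    rw [mul_E, Matrix.smul_apply, E_mul, add_zero, hM.apply, add_add_self] at h1
    simp only [map_zero, sgn_zero, mul_one, smul_eq_mul] at h1
    rw [← mul_assoc, ← sgn_add] at h1
    have h2 := sgn_inj (mul_right_cancel₀ hx h1)
    rw [h2, add_assoc, z2_add_self, add_zero]
  refine ⟨w, ?_, hw⟩
  apply hM.ext ((InA.bas w).smul _)
  intro x
  rw [Matrix.smul_apply, E_apply, add_zero, smul_eq_mul]
  by_cases hxw : x = w
  · rw [if_pos hxw, hxw]; simp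
  · rw [if_neg hxw, mul_zero]
    by_contra hx
    apply hxw
    have h1 : x + w = 0 := by
      apply hnd
      intro u
      obtain ⟨s, hs⟩ := h u
      have h2 := key x hx u s hs
      have h3 := key w hw u s hs
      simp only [map_add, LinearMap.add_apply]
      calc β x u + β w u + (β u x + β u w) = (β x u + β u x) + (β w u + β u w) := by ring
        _ = 0 := by rw [h2, h3, z2_add_self]
    calc x = x + (w + w) := by rw [add_self, add_zero]
      _ = w := by rw [← add_assoc, h1, zero_add]

theorem sgn_smul_E_inj {s t : ZMod 2} {u v : U} (h : sgn s • E β u = sgn t • E β v) : s = t ∧ u = v := by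
  have h1 := congrFun (congrFun h u) 0
  rw [Matrix.smul_apply, Matrix.smul_apply, E_apply, E_apply, add_zero, if_pos rfl, add_zero] at h1
  simp only [map_zero, sgn_zero, smul_eq_mul, mul_one] at h1
  by_cases huv : u = v
  · rw [if_pos huv, mul_one] at h1
    exact ⟨sgn_inj h1, huv⟩
  · rw [if_neg huv, mul_zero] at h1
    exact absurd h1 (sgn_ne s)

theorem sum_sgn {u : U} (hu : ∃ w, β u w + β w u ≠ 0) : ∑ w, sgn (β u w + β w u) = 0 := by
  obtain ⟨w0, hw0⟩ := hu
  have h1 : ∑ w, sgn (β u w + β w u) = ∑ w, sgn (β u (w0 + w) + β (w0 + w) u) :=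
    (Equiv.sum_comp (Equiv.addLeft w0) fun w => sgn (β u w + β w u)).symm
  have h2 : ∀ w, sgn (β u (w0 + w) + β (w0 + w) u) = - sgn (β u w + β w u) := by
    intro w
    have : β u (w0 + w) + β (w0 + w) u = (β u w0 + β w0 u) + (β u w + β w u) := by
      simp only [map_add, LinearMap.add_apply]; ring
    rw [this, (z2 _).resolve_left hw0, sgn_add, sgn_one]
    ring
  rw [Finset.sum_congr rfl fun w _ => h2 w, Finset.sum_neg_distrib] at h1
  linarith

/-! ### Intertwining operators -/

section Inter
variable (k : U →ₗ[ZMod 2] U) (γ : U → ZMod 2)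

/-- The intertwining operators. -/
noncomputable def T (β : LinearMap.BilinForm (ZMod 2) U) (k : U →ₗ[ZMod 2] U) (γ : U → ZMod 2) (w : U) :
    Matrix U U ℝ := ∑ u, sgn (γ u + β u u) • (E β (k u) * E β w * E β u)

theorem T_mem (w : U) : InA β (T β k γ w) :=
  InA.sum _ fun u _ => (((InA.bas (k u)).mul (InA.bas w)).mul (InA.bas u)).smul _

variable {k γ}
theorem T_mul_E (hq : ∀ u, β (k u) (k u) = β u u)
    (hγ : ∀ u v, γ (u + v) = γ u + γ v + (β (k u) (k v) + β u v)) (w v : U) :
    T β k γ w * E β v = (sgn (γ v) • E β (k v)) * T β k γ w := by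
  have hB : ∀ u v, β (k u) (k v) + β (k v) (k u) = β u v + β v u := by
    intro u v
    have h := hq (u + v)
    simp only [map_add, LinearMap.add_apply, hq] at h
    have h2 : (β u u + (β (k v) (k u))) + (β (k u) (k v) + β v v) = (β u u + β v u) + (β u v + β v v) := by
      convert h using 1
    have h3 : β (k u) (k v) + β (k v) (k u) + (β u u + β v v) = β u v + β v u + (β u u + β v v) := by
      calc _ = (β u u + (β (k v) (k u))) + (β (k u) (k v) + β v v) := by ring
        _ = _ := by rw [h2]; ring
    exact add_right_cancel h3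
  rw [T, Finset.sum_mul, Finset.mul_sum]
  rw [← Equiv.sum_comp (Equiv.addRight v) fun u => sgn (γ u + β u u) • (E β (k u) * E β w * E β u) * E β v]
  refine Finset.sum_congr rfl fun u _ => ?_
  simp only [Equiv.coe_addRight]
  have h1 : u + v + v = u := by rw [add_assoc, add_self, add_zero]
  have h2 : k v + k u = k (u + v) := by rw [map_add, add_comm]
  have hL : sgn (γ (u + v) + β (u + v) (u + v)) • (E β (k (u + v)) * E β w * E β (u + v)) * E β v
      = sgn (γ (u + v) + β (u + v) (u + v) + β (u + v) v) • (E β (k (u + v)) * E β w * E β u) := by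
    rw [Matrix.smul_mul, mul_assoc (E β (k (u + v)) * E β w), E_mul_E β (u + v) v, h1, Matrix.mul_smul, smul_smul, ← sgn_add]
  have hR : (sgn (γ v) • E β (k v)) * (sgn (γ u + β u u) • (E β (k u) * E β w * E β u))
      = sgn (γ v + (γ u + β u u) + β (k v) (k u)) • (E β (k (u + v)) * E β w * E β u) := by
    rw [Matrix.smul_mul, Matrix.mul_smul, ← mul_assoc, ← mul_assoc, E_mul_E β (k v) (k u), h2, Matrix.smul_mul,
      Matrix.smul_mul, smul_smul, smul_smul, ← sgn_add, ← sgn_add]
  rw [hL, hR]
  congr 2
  have h3 := hB u v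
  simp only [map_add, LinearMap.add_apply, hγ]
  have h4 : β (k v) (k u) = β (k u) (k v) + (β u v + β v u) := by
    rw [← h3, ← add_assoc, z2_add_self, zero_add]
  rw [h4]
  have h5 := z2_add_self (β u v)
  have h6 := z2_add_self (β v v)
  linear_combination h5 + h6

theorem T_trace (hnd : ∀ x, (∀ u, β x u + β u x = 0) → x = 0)
    (hγ : ∀ u v, γ (u + v) = γ u + γ v + (β (k u) (k v) + β u v)) :
    ∑ w, T β k γ w w 0 = Fintype.card U := by
  have hγ0 : γ 0 = 0 := by
    have := hγ 0 0
    simp only [map_zero, LinearMap.zero_apply, add_zero] at this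
    exact (left_eq_add.1 this)
  have h1 : ∀ w, T β k γ w w 0 = ∑ u, if k u = u then sgn (γ u) * sgn (β u w + β w u) else 0 := by
    intro w
    rw [T, Matrix.sum_apply]
    refine Finset.sum_congr rfl fun u _ => ?_
    rw [Matrix.smul_apply, E_mul_E, Matrix.smul_mul, E_mul_E, Matrix.smul_apply, Matrix.smul_apply, E_apply, add_zero]
    by_cases h : k u = u
    · rw [if_pos h, if_pos (by rw [h, add_assoc, add_comm w u, add_add_self]), h]
      simp only [smul_eq_mul, map_zero, sgn_zero, mul_one]
      rw [← sgn_add, ← sgn_add, ← sgn_add]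
      congr 1
      simp only [map_add, LinearMap.add_apply]
      have h6 := z2_add_self (β u u)
      linear_combination h6
    · rw [if_neg h, if_neg]
      · simp
      · intro h2
        apply h
        have h3 : k u + u = 0 := by
          have : w = (k u + u) + w := by rw [add_assoc, add_comm u w, ← add_assoc]; exact h2
          exact (left_eq_add.1 (this.trans (add_comm _ _)))
        calc k u = k u + (u + u) := by rw [add_self, add_zero]
          _ = u := by rw [← add_assoc, h3, zero_add]
  rw [Finset.sum_congr rfl fun w _ => h1 w, Finset.sum_comm, Finset.sum_eq_single (0 : U)]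
  · simp [hγ0]
  · intro u _ hu
    by_cases h : k u = u
    · simp only [if_pos h]
      rw [← Finset.mul_sum, sum_sgn, mul_zero]
      by_contra hcon
      push Not at hcon
      exact hu (hnd u hcon)
    · simp [if_neg h]
  · intro h; exact absurd (Finset.mem_univ _) h

/-- Existence of an orthogonal intertwining operator. -/
theorem exists_orth (hnd : ∀ x, (∀ u, β x u + β u x = 0) → x = 0) (hq : ∀ u, β (k u) (k u) = β u u)
    (hγ : ∀ u v, γ (u + v) = γ u + γ v + (β (k u) (k v) + β u v)) :
    ∃ g : Matrix U U ℝ, gᵀ * g = 1 ∧ InA β g ∧ ∀ v, g * E β v = sgn (γ v) • (E β (k v) * g) := by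
  obtain ⟨w, hw⟩ : ∃ w, T β k γ w ≠ 0 := by
    by_contra hcon
    push Not at hcon
    have h := T_trace (k := k) (γ := γ) hnd hγ
    simp only [hcon, Matrix.zero_apply, Finset.sum_const_zero] at h
    have : Fintype.card U ≠ 0 := Fintype.card_ne_zero
    exact this (by exact_mod_cast h.symm)
  set M := T β k γ w with hM
  have hMA : InA β M := T_mem k γ w
  have hME : ∀ v, M * E β v = sgn (γ v) • (E β (k v) * M) := by
    intro v
    rw [hM, T_mul_E hq hγ, Matrix.smul_mul]
  have hMt : ∀ v, E β v * Mᵀ = sgn (γ v) • (Mᵀ * E β (k v)) := by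
    intro v
    have h := congrArg Matrix.transpose (hME v)
    rw [Matrix.transpose_mul, Matrix.transpose_smul, Matrix.transpose_mul, E_transpose, E_transpose, hq, Matrix.smul_mul,
      Matrix.mul_smul, smul_comm] at h
    have h2 := congrArg (fun X => sgn (β v v) • X) h
    simp only [smul_smul, sgn_mul_self, one_smul] at h2
    rw [h2, ← mul_assoc, sgn_mul_self, one_mul]
  have hNA : InA β (Mᵀ * M) := hMA.transpose.mul hMA
  obtain ⟨x0, hx0⟩ : ∃ x, M x 0 ≠ 0 := by
    by_contra hcon
    push Not at hcon
    apply hw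
    apply hMA.ext (N := 0)
    · intro u; simp
    · intro x; rw [hcon x]; rfl
  have hpos : 0 < (Mᵀ * M) 0 0 := by
    rw [Matrix.mul_apply]
    apply Finset.sum_pos'
    · intro i _
      rw [Matrix.transpose_apply]
      exact mul_self_nonneg _
    · exact ⟨x0, Finset.mem_univ _, by rw [Matrix.transpose_apply]; exact mul_self_pos.2 hx0⟩
  have hN0 : Mᵀ * M ≠ 0 := by
    intro h
    rw [h] at hpos
    simp at hpos
  have hcomm : ∀ u, (Mᵀ * M) * E β u = sgn 0 • (E β u * (Mᵀ * M)) := by
    intro u
    rw [sgn_zero, one_smul, mul_assoc, hME, Matrix.mul_smul, ← mul_assoc, ← mul_assoc, hMt, Matrix.smul_mul]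
  obtain ⟨z, hz, hz0⟩ := hNA.eq_smul_E hN0 hnd fun u => ⟨0, hcomm u⟩
  have hz1 : z = 0 := by
    by_contra hzne
    have h1 := congrFun (congrFun hz 0) 0
    rw [Matrix.smul_apply, E_apply, add_zero, if_neg (fun h => hzne h.symm), smul_zero] at h1
    exact hpos.ne' h1
  rw [hz1, E_zero] at hz
  set c := (Mᵀ * M) 0 0 with hc
  refine ⟨(Real.sqrt c)⁻¹ • M, ?_, hMA.smul _, ?_⟩
  · rw [Matrix.transpose_smul, Matrix.smul_mul, Matrix.mul_smul, smul_smul, hz, smul_smul, ← mul_inv, Real.mul_self_sqrt hpos.le,
      inv_mul_cancel₀ hpos.ne', one_smul]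
  · intro v
    rw [Matrix.smul_mul, hME, Matrix.mul_smul, smul_comm]

end Inter

end

/-- Alternating forms are polarizations. -/
theorem exists_polar {U : Type*} [AddCommGroup U] [Module (ZMod 2) U] [Module.Finite (ZMod 2) U]
    (δ : LinearMap.BilinForm (ZMod 2) U) (hδ : ∀ u, δ u u = 0) :
    ∃ γ : U → ZMod 2, ∀ u v, γ (u + v) = γ u + γ v + δ u v := by
  classical
  let b := Module.finBasis (ZMod 2) U
  let η : LinearMap.BilinForm (ZMod 2) U :=
    b.constr (ZMod 2) fun i => b.constr (ZMod 2) fun j => if i < j then δ (b i) (b j) else 0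
  have hη : ∀ i j, η (b i) (b j) = if i < j then δ (b i) (b j) else 0 := by
    intro i j
    simp only [η, Module.Basis.constr_basis]
  have hsymm : ∀ u v, δ u v = δ v u := by
    intro u v
    have h := hδ (u + v)
    simp only [map_add, LinearMap.add_apply, hδ, zero_add, add_zero] at h
    have h2 : δ v u = - δ u v := eq_neg_of_add_eq_zero_left h
    rw [h2, eq_neg_iff_add_eq_zero, z2_add_self]
  have key : δ = η + η.flip := by
    apply LinearMap.ext_basis b b
    intro i j
    rw [LinearMap.add_apply, LinearMap.add_apply, LinearMap.BilinForm.flip_apply, hη, hη]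
    rcases lt_trichotomy i j with h | h | h
    · rw [if_pos h, if_neg (not_lt.2 h.le), add_zero]
    · rw [h, if_neg (lt_irrefl _), hδ, add_zero]
    · rw [if_pos h, if_neg (not_lt.2 h.le), zero_add, hsymm]
  refine ⟨fun u => η u u, fun u v => ?_⟩
  rw [key]
  simp only [map_add, LinearMap.add_apply, LinearMap.BilinForm.flip_apply]
  ring

end H56.X84
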