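import Cfsg.Agent.Lib.H56.X84a
import Cfsg.Prelude.Def_Transfer
import Cfsg.Agent.Lib.H3.Extraspecial

set_option autoImplicit false

/-! Extensions of extraspecial 2-groups realizing orthogonal modules. -/

namespace H56.X84

open Matrix

section
variable {K : Type*} [Group K] {U : Type*} [AddCommGroup U] [Module (ZMod 2) U] [Fintype U] [DecidableEq U]

/-- The extension. -/
noncomputable def extn (β : LinearMap.BilinForm (ZMod 2) U) (ρ : Representation (ZMod 2) K U) :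
    Subgroup (Matrix.orthogonalGroup U ℝ × K) where
  carrier := {r | InA β (r.1 : Matrix U U ℝ) ∧
    ∀ u, ∃ s, (r.1 : Matrix U U ℝ) * E β u = sgn s • (E β (ρ r.2 u) * (r.1 : Matrix U U ℝ))}
  one_mem' := by
    refine ⟨?_, fun u => ⟨0, ?_⟩⟩
    · exact InA.one
    · simp
  mul_mem' := by
    rintro a b ⟨ha, ha2⟩ ⟨hb, hb2⟩
    refine ⟨?_, fun u => ?_⟩
    · exact ha.mul hb
    · obtain ⟨s, hs⟩ := hb2 u
      obtain ⟨t, ht⟩ := ha2 (ρ b.2 u)
      refine ⟨s + t, ?_⟩
      have e1 : ((a * b).1 : Matrix U U ℝ) = (a.1 : Matrix U U ℝ) * (b.1 : Matrix U U ℝ) := rfl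
      have e2 : ρ (a * b).2 u = ρ a.2 (ρ b.2 u) := by
        rw [Prod.snd_mul, map_mul]; rfl
      rw [e1, e2, mul_assoc, hs, Matrix.mul_smul, ← mul_assoc, ht, Matrix.smul_mul, smul_smul, sgn_add, mul_assoc]
  inv_mem' := by
    rintro a ⟨ha, ha2⟩
    have h1 : (a⁻¹.1 : Matrix U U ℝ) * (a.1 : Matrix U U ℝ) = 1 := congrArg Subtype.val (inv_mul_cancel a.1)
    have h2 : (a.1 : Matrix U U ℝ) * (a⁻¹.1 : Matrix U U ℝ) = 1 := congrArg Subtype.val (mul_inv_cancel a.1)
    refine ⟨fun u => ?_, fun u => ?_⟩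
    · calc (a⁻¹.1 : Matrix U U ℝ) * F β u = (a⁻¹.1 : Matrix U U ℝ) * (F β u * (a.1 : Matrix U U ℝ)) * (a⁻¹.1 : Matrix U U ℝ) := by
            rw [mul_assoc, mul_assoc, h2, mul_one]
        _ = (a⁻¹.1 : Matrix U U ℝ) * (a.1 : Matrix U U ℝ) * F β u * (a⁻¹.1 : Matrix U U ℝ) := by
            rw [← ha u]; simp only [mul_assoc]
        _ = F β u * (a⁻¹.1 : Matrix U U ℝ) := by rw [h1, one_mul]
    · obtain ⟨s, hs⟩ := ha2 (ρ a⁻¹.2 u)
      refine ⟨s, ?_⟩
      have e2 : ρ a.2 (ρ a⁻¹.2 u) = u := by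
        have : ρ a.2 (ρ a⁻¹.2 u) = ρ (a.2 * a⁻¹.2) u := by rw [map_mul]; rfl
        rw [this, Prod.snd_inv, mul_inv_cancel, map_one]; rfl
      rw [e2] at hs
      have h3 : E β u * (a.1 : Matrix U U ℝ) = sgn s • ((a.1 : Matrix U U ℝ) * E β (ρ a⁻¹.2 u)) := by
        rw [hs, smul_smul, sgn_mul_self, one_smul]
      calc (a⁻¹.1 : Matrix U U ℝ) * E β u = (a⁻¹.1 : Matrix U U ℝ) * (E β u * (a.1 : Matrix U U ℝ)) * (a⁻¹.1 : Matrix U U ℝ) := by
            rw [mul_assoc, mul_assoc, h2, mul_one]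
        _ = sgn s • ((a⁻¹.1 : Matrix U U ℝ) * (a.1 : Matrix U U ℝ) * E β (ρ a⁻¹.2 u) * (a⁻¹.1 : Matrix U U ℝ)) := by
            rw [h3]; simp only [mul_assoc, Matrix.mul_smul, Matrix.smul_mul]
        _ = sgn s • (E β (ρ a⁻¹.2 u) * (a⁻¹.1 : Matrix U U ℝ)) := by rw [h1, one_mul]

/-- The abstract properties of the extension. -/
structure Dat (β : LinearMap.BilinForm (ZMod 2) U) (ρ : Representation (ZMod 2) K U) {R : Type*} [Group R]
    (π : R →* K) (μ : R →* Matrix U U ℝ) : Prop where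
  surj : Function.Surjective π
  inj : ∀ r, π r = 1 → μ r = 1 → r = 1
  h1 : ∀ r, π r = 1 → ∃ s w, μ r = sgn s • E β w
  h2 : ∀ s w, ∃ r, π r = 1 ∧ μ r = sgn s • E β w
  h3 : ∀ r u, ∃ s, μ r * E β u = sgn s • (E β (ρ (π r) u) * μ r)

variable {β : LinearMap.BilinForm (ZMod 2) U} {ρ : Representation (ZMod 2) K U}

theorem E_comm (u v : U) : E β u * E β v = sgn (β u v + β v u) • (E β v * E β u) := by
  rw [E_mul_E, E_mul_E, smul_smul, ← sgn_add, add_comm v u, add_assoc, z2_add_self, add_zero]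

theorem E_orth (s : ZMod 2) (w : U) : (sgn s • E β w)ᵀ * (sgn s • E β w) = 1 := by
  rw [Matrix.transpose_smul, E_transpose, Matrix.smul_mul, Matrix.smul_mul, Matrix.mul_smul, E_mul_E, add_self, E_zero,
    smul_smul, smul_smul, smul_smul]
  have : sgn s * (sgn (β w w) * (sgn s * sgn (β w w))) = 1 := by
    calc sgn s * (sgn (β w w) * (sgn s * sgn (β w w))) = (sgn s * sgn s) * (sgn (β w w) * sgn (β w w)) := by ring
      _ = 1 := by rw [sgn_mul_self, sgn_mul_self, one_mul]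
  rw [show sgn s * sgn (β w w) * sgn s * sgn (β w w) = 1 by linarith [this]] <;> simp

theorem dat_extn (hnd : ∀ x, (∀ u, β x u + β u x = 0) → x = 0) (hq : ∀ k u, β (ρ k u) (ρ k u) = β u u) :
    Dat β ρ ((MonoidHom.snd (Matrix.orthogonalGroup U ℝ) K).comp (extn β ρ).subtype)
      (((Matrix.orthogonalGroup U ℝ).subtype.comp (MonoidHom.fst (Matrix.orthogonalGroup U ℝ) K)).comp
        (extn β ρ).subtype) := by
  refine ⟨?_, ?_, ?_, ?_, ?_⟩
  · intro k
    have := Module.Finite.of_finite (R := ZMod 2) (M := U)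
    obtain ⟨γ, hγ⟩ := exists_polar (U := U) (β.comp (ρ k) (ρ k) + β) (by
      intro u
      rw [LinearMap.add_apply, LinearMap.add_apply, LinearMap.BilinForm.comp_apply, hq, z2_add_self])
    obtain ⟨g, hg1, hg2, hg3⟩ := exists_orth (k := ρ k) (γ := γ) hnd (hq k) (fun u v => by
      rw [hγ]; rfl)
    have hgo : g ∈ Matrix.orthogonalGroup U ℝ := by
      rw [Matrix.mem_orthogonalGroup_iff']
      exact hg1
    exact ⟨⟨(⟨g, hgo⟩, k), hg2, fun u => ⟨γ u, hg3 u⟩⟩, rfl⟩
  · intro r h1 h2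
    apply Subtype.ext
    apply Prod.ext
    · exact Subtype.ext h2
    · exact h1
  · intro r hr
    obtain ⟨hA, hB⟩ := r.2
    have hr' : r.1.2 = 1 := hr
    rw [hr'] at hB
    set g : Matrix U U ℝ := (r.1.1 : Matrix U U ℝ) with hg
    have hgo : gᵀ * g = 1 := by
      have := r.1.1.2
      rw [Matrix.mem_orthogonalGroup_iff'] at this
      exact this
    have hg0 : g ≠ 0 := by
      intro h
      rw [h] at hgo
      have := congrFun (congrFun hgo 0) 0
      simp at this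
    obtain ⟨w, hw, hw0⟩ := hA.eq_smul_E hg0 hnd (fun u => by
      obtain ⟨s, hs⟩ := hB u
      exact ⟨s, by rw [hs, map_one]; rfl⟩)
    have hc : g w 0 * g w 0 = 1 := by
      rw [hw] at hgo
      rw [Matrix.transpose_smul, E_transpose, Matrix.smul_mul, Matrix.smul_mul, Matrix.mul_smul, E_mul_E, add_self, E_zero,
        smul_smul, smul_smul, smul_smul] at hgo
      have h1 := congrFun (congrFun hgo 0) 0
      rw [Matrix.smul_apply, Matrix.one_apply_eq, smul_eq_mul, mul_one] at h1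
      calc g w 0 * g w 0 = (g w 0 * g w 0) * (sgn (β w w) * sgn (β w w)) := by rw [sgn_mul_self, mul_one]
        _ = 1 := by linarith [h1]
    obtain ⟨s, hs⟩ := sgn_of_mul_self hc
    refine ⟨s, w, ?_⟩
    rw [← hs]
    exact hw
  · intro s w
    refine ⟨⟨(⟨sgn s • E β w, ?_⟩, 1), ?_, ?_⟩, rfl, rfl⟩
    · rw [Matrix.mem_orthogonalGroup_iff']
      exact E_orth s w
    · exact (InA.bas w).smul _
    · intro u
      refine ⟨β w u + β u w, ?_⟩
      show (sgn s • E β w) * E β u = sgn (β w u + β u w) • (E β (ρ 1 u) * (sgn s • E β w))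
      rw [map_one, Matrix.smul_mul, E_comm, Matrix.mul_smul, smul_comm]
      rfl
  · intro r u
    exact r.2.2 u

theorem Dat.equiv {R R' : Type*} [Group R] [Group R'] {π : R →* K} {μ : R →* Matrix U U ℝ} (D : Dat β ρ π μ)
    (f : R' ≃* R) : Dat β ρ (π.comp f.toMonoidHom) (μ.comp f.toMonoidHom) := by
  refine ⟨D.surj.comp f.surjective, ?_, ?_, ?_, ?_⟩
  · intro r h1 h2
    have := D.inj (f r) h1 h2
    exact (map_eq_one_iff f f.injective).1 this
  · intro r hr
    exact D.h1 (f r) hr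
  · intro s w
    obtain ⟨r, h1, h2⟩ := D.h2 s w
    refine ⟨f.symm r, ?_, ?_⟩
    · show π (f (f.symm r)) = 1
      rw [f.apply_symm_apply]; exact h1
    · show μ (f (f.symm r)) = _
      rw [f.apply_symm_apply]; exact h2
  · intro r u
    exact D.h3 (f r) u

section Final

variable {R : Type*} [Group R] {π : R →* K} {μ : R →* Matrix U U ℝ} (D : Dat β ρ π μ)
include D

theorem Dat.inj' {r t : R} (hr : π r = 1) (ht : π t = 1) (h : μ r = μ t) : r = t := by
  have h1 : r * t⁻¹ = 1 := by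
    apply D.inj
    · rw [map_mul, map_inv, hr, ht]; simp
    · rw [map_mul, h, ← map_mul, mul_inv_cancel, map_one]
  exact mul_inv_eq_one.1 h1

/-- The sign. -/
noncomputable def Dat.sg (r : π.ker) : ZMod 2 := (D.h1 r r.2).choose

/-- The vector. -/
noncomputable def Dat.vc (r : π.ker) : U := (D.h1 r r.2).choose_spec.choose

theorem Dat.spec (r : π.ker) : μ r = sgn (D.sg r) • E β (D.vc r) := (D.h1 r r.2).choose_spec.choose_spec

theorem Dat.vc_eq {r : π.ker} {s : ZMod 2} {w : U} (h : μ r = sgn s • E β w) : D.sg r = s ∧ D.vc r = w := by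
  have h1 := D.spec r
  rw [h] at h1
  obtain ⟨h2, h3⟩ := sgn_smul_E_inj h1
  exact ⟨h2.symm, h3.symm⟩

/-- The homomorphism onto `U`. -/
noncomputable def Dat.chi : π.ker →* Multiplicative U :=
  MonoidHom.mk' (fun a => Multiplicative.ofAdd (D.vc a)) (fun a b => by
    rw [← ofAdd_add]
    congr 1
    refine (D.vc_eq (s := D.sg a + D.sg b + β (D.vc a) (D.vc b)) ?_).2
    rw [Subgroup.coe_mul, map_mul, D.spec a, D.spec b, Matrix.smul_mul, Matrix.mul_smul, E_mul_E, smul_smul, smul_smul,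
      sgn_add, sgn_add])

theorem Dat.chi_apply (a : π.ker) : Multiplicative.toAdd (D.chi a) = D.vc a := rfl

/-- The coordinates. -/
noncomputable def Dat.eqv : π.ker ≃ ZMod 2 × U :=
  Equiv.ofBijective (fun a => (D.sg a, D.vc a)) ⟨by
    intro a b h
    have h1 : D.sg a = D.sg b := congrArg Prod.fst h
    have h2 : D.vc a = D.vc b := congrArg Prod.snd h
    apply Subtype.ext
    apply D.inj' a.2 b.2
    rw [D.spec a, D.spec b, h1, h2], by
    rintro ⟨s, w⟩
    obtain ⟨r, h1, h2⟩ := D.h2 s w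
    refine ⟨⟨r, h1⟩, ?_⟩
    obtain ⟨h3, h4⟩ := D.vc_eq (r := ⟨r, h1⟩) h2
    exact Prod.ext h3 h4⟩

theorem Dat.card : Nat.card π.ker = 2 * Nat.card U := by
  rw [Nat.card_congr D.eqv, Nat.card_prod, Nat.card_zmod]

theorem Dat.surj_chi : Function.Surjective D.chi := by
  intro u
  obtain ⟨r, h1, h2⟩ := D.h2 0 (Multiplicative.toAdd u)
  refine ⟨⟨r, h1⟩, ?_⟩
  exact congrArg Multiplicative.ofAdd (D.vc_eq (r := ⟨r, h1⟩) h2).2

theorem Dat.mem_center (hnd : ∀ x, (∀ u, β x u + β u x = 0) → x = 0) (a : π.ker) :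
    a ∈ Subgroup.center π.ker ↔ D.vc a = 0 := by
  rw [Subgroup.mem_center_iff]
  constructor
  · intro h
    apply hnd
    intro u
    obtain ⟨r, h1, h2⟩ := D.h2 0 u
    have h3 := congrArg (fun x : π.ker => μ x) (h ⟨r, h1⟩)
    simp only [Subgroup.coe_mul, map_mul] at h3
    rw [h2, D.spec a, sgn_zero, one_smul, Matrix.mul_smul, Matrix.smul_mul, E_mul_E, E_mul_E, smul_smul, smul_smul,
      ← sgn_add, ← sgn_add] at h3
    have h4 := (sgn_smul_E_inj h3).1
    have h5 := add_left_cancel h4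
    rw [h5, z2_add_self]
  · intro h b
    apply Subtype.ext
    apply D.inj'
    · exact (b * a).2
    · exact (a * b).2
    · rw [Subgroup.coe_mul, Subgroup.coe_mul, map_mul, map_mul, D.spec a, h, E_zero, Matrix.mul_smul, Matrix.smul_mul,
        mul_one, one_mul]

theorem Dat.ker_chi (hnd : ∀ x, (∀ u, β x u + β u x = 0) → x = 0) : D.chi.ker = Subgroup.center π.ker := by
  ext a
  rw [D.mem_center hnd, MonoidHom.mem_ker]
  exact ⟨fun h => congrArg Multiplicative.toAdd h, fun h => congrArg Multiplicative.ofAdd h⟩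

theorem Dat.extraspecial (hnd : ∀ x, (∀ u, β x u + β u x = 0) → x = 0) [Nontrivial U] :
    Cfsg.IsExtraspecial 2 π.ker := by
  have hf : Fact (Nat.Prime 2) := ⟨Nat.prime_two⟩
  have hfin : Finite π.ker := Finite.of_equiv _ D.eqv.symm
  have hk := D.ker_chi hnd
  apply H3.Extraspecial.isExtraspecial_of
  · rw [← hk]
    exact Abelianization.commutator_subset_ker D.chi
  · rw [← hk]
    have h1 := Subgroup.card_mul_index D.chi.ker
    have h2 : D.chi.ker.index = Nat.card U := by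
      rw [Subgroup.index_ker]
      rw [MonoidHom.range_eq_top.2 D.surj_chi, Subgroup.card_top]
      rfl
    rw [h2, D.card] at h1
    exact Nat.eq_of_mul_eq_mul_right Nat.card_pos h1
  · obtain ⟨u, hu⟩ := exists_ne (0 : U)
    obtain ⟨r, h1, h2⟩ := D.h2 0 u
    have h3 : (⟨r, h1⟩ : π.ker) ∉ Subgroup.center π.ker := by
      rw [D.mem_center hnd, (D.vc_eq (r := ⟨r, h1⟩) h2).2]
      exact hu
    rw [Subgroup.mem_center_iff] at h3
    push Not at h3
    obtain ⟨g, hg⟩ := h3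
    refine ⟨g, ⟨r, h1⟩, fun h => hg ?_⟩
    exact commutatorElement_eq_one_iff_mul_comm.1 h

theorem Dat.conj (r : R) (a : π.ker) (h : r * a * r⁻¹ ∈ π.ker) : D.vc ⟨r * a * r⁻¹, h⟩ = ρ (π r) (D.vc a) := by
  obtain ⟨s, hs⟩ := D.h3 r (D.vc a)
  refine (D.vc_eq (s := D.sg a + s) ?_).2
  show μ (r * a * r⁻¹) = _
  have h1 : μ r * μ r⁻¹ = 1 := by rw [← map_mul, mul_inv_cancel, map_one]
  rw [map_mul, map_mul, D.spec a, Matrix.mul_smul, hs, smul_smul, ← sgn_add, Matrix.smul_mul, mul_assoc, h1, mul_one]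

theorem Dat.sq (a : π.ker) : a * a = 1 ↔ β (D.vc a) (D.vc a) = 0 := by
  have h1 : μ (a * a : π.ker) = sgn (β (D.vc a) (D.vc a)) • E β 0 := by
    rw [Subgroup.coe_mul, map_mul, D.spec a, Matrix.smul_mul, Matrix.mul_smul, E_mul_E, add_self, smul_smul, smul_smul,
      sgn_mul_self, one_mul]
  constructor
  · intro h
    rw [h, Subgroup.coe_one, map_one, ← E_zero β] at h1
    have h2 : sgn 0 • E β 0 = sgn (β (D.vc a) (D.vc a)) • E β 0 := by rw [sgn_zero, one_smul]; exact h1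
    exact (sgn_smul_E_inj h2).1.symm
  · intro h
    rw [h, sgn_zero, one_smul, E_zero] at h1
    apply Subtype.ext
    exact D.inj _ (a * a).2 h1

end Final

end

end H56.X84
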